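import Cfsg.Agent.H813.Rg.EFac

/-!
# S3691, rows `E₆`, `²E₆`: no exact factorization (helper813)
-/

set_option autoImplicit false

namespace Cfsg.Agent.H813.Rg

open Cfsg Subgroup Cfsg.Lie Cfsg.Agent.H454.Reg Cfsg.Agent.H73.Rg Cfsg.Agent.H436 Cfsg.Agent.H56.Exc

universe u v

variable {p f c : ℕ}

/-- the class `c` is prime to `|Y ∩ T|`: then it is prime to `|T : X ∩ T|` -/
theorem Cl.all {K : Type v} [Group K] (hcl : Cl p f K c) {G : Type u} [Group G] [Finite G] {T X Y : Subgroup G} (h : Fac T X Y)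
    (e : T ≃* K) (hp : p.Prime) (hf : 1 ≤ f) (hc : 5 ≤ c)
    (hY : ∀ r, Prim p (f * c) r → ¬ r ∣ Nat.card ((Y.subgroupOf T).map e.toMonoidHom)) :
    ∀ r, Prim p (f * c) r → ¬ r ∣ ((X.subgroupOf T).map e.toMonoidHom).index := by
  intro r hr
  have h1 : r ∣ Nat.card K := (dvd_PP hp.two_le (by nlinarith) hr).trans hcl.dvd
  have h2 : ¬ r ∣ Nat.card (Cfsg.Out T) := by rw [card_out_congr e]; exact hcl.out r hr
  have h3 := (prime_of_fac h e hr.prime h1 h2).resolve_right (hY r hr)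
  exact full_of_fac h e hr.prime h2 (hcl.cyc r hr) h3

theorem no_fac_E6_aux {F : Type v} [Field F] [Fintype F] (hp : p.Prime) (hf : 1 ≤ f) (hF : Fintype.card F = p ^ f)
    (k1 : ∀ B : Subgroup ↥(chevE6.group F), HOff p f [9, 12] B → B = ⊤)
    (k2 : ∀ B : Subgroup ↥(chevE6.group F), HOff p f [9, 8] B → B = ⊤)
    (k3 : ∀ B : Subgroup ↥(chevE6.group F), HOff p f [12, 8] B → B ≠ ⊤ → ∀ c ∈ [9, 5], ∀ r, Prim p (f * c) r → ¬ r ∣ Nat.card B)
    (k4 : ∀ B : Subgroup ↥(chevE6.group F), (∀ r, Prim p (f * 9) r → ¬ r ∣ B.index) →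
      ∀ s, Prim p (f * 5) s → s ∣ Nat.card B → B = ⊤)
    {G : Type u} [Group G] [Finite G] {T X Y : Subgroup G} (h : Fac T X Y) (e : T ≃* ↥(chevE6.group F))
    (h9 : HAt p f 9 ((X.subgroupOf T).map e.toMonoidHom)) : False := by
  have hX := map_ne_top_left h e
  have hY := map_ne_top_right h e
  have h12 := ((cl_E6 hp hf hF (Or.inr (Or.inr rfl))).fac h e hp hf (by norm_num)).resolve_left
    fun h12 => hX (k1 _ (hoff2 h9 h12))
  have h8 := ((cl_E6 hp hf hF (Or.inl rfl)).fac h e hp hf (by norm_num)).resolve_left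
    fun h8 => hX (k2 _ (hoff2 h9 h8))
  have hno := k3 _ (hoff2 h12 h8) hY
  have hall := (cl_E6 hp hf hF (Or.inr (Or.inl rfl))).all h e hp hf (by norm_num) (hno 9 (by decide))
  obtain ⟨s, hs⟩ := exists_prim_class hp hf (c := 5) le_rfl (by norm_num)
  obtain ⟨h1, h2⟩ := five_E6 hp hf hF hs
  have h3 := (prime_of_fac h e hs.prime h1 (by rw [card_out_congr e]; exact h2)).resolve_right (hno 5 (by decide) s hs)
  exact hX (k4 _ hall s hs h3)

/-- **`E₆`** -/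
theorem no_fac_E6 {F : Type v} [Field F] [Fintype F] (hp : p.Prime) (hf : 1 ≤ f) (hF : Fintype.card F = p ^ f)
    (k1 : ∀ B : Subgroup ↥(chevE6.group F), HOff p f [9, 12] B → B = ⊤)
    (k2 : ∀ B : Subgroup ↥(chevE6.group F), HOff p f [9, 8] B → B = ⊤)
    (k3 : ∀ B : Subgroup ↥(chevE6.group F), HOff p f [12, 8] B → B ≠ ⊤ → ∀ c ∈ [9, 5], ∀ r, Prim p (f * c) r → ¬ r ∣ Nat.card B)
    (k4 : ∀ B : Subgroup ↥(chevE6.group F), (∀ r, Prim p (f * 9) r → ¬ r ∣ B.index) →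
      ∀ s, Prim p (f * 5) s → s ∣ Nat.card B → B = ⊤)
    {G : Type u} [Group G] [Finite G] {T X Y : Subgroup G} (h : Fac T X Y) (e : T ≃* ↥(chevE6.group F)) : False := by
  rcases (cl_E6 hp hf hF (Or.inr (Or.inl rfl))).fac h e hp hf (by norm_num) with h9 | h9
  · exact no_fac_E6_aux hp hf hF k1 k2 k3 k4 h e h9
  · exact no_fac_E6_aux hp hf hF k1 k2 k3 k4 h.symm e h9

theorem no_fac_TE6_aux {F : Type v} [Field F] [Fintype F] (hp : p.Prime) (hf : 1 ≤ f) (hF : Fintype.card F = (p ^ f) ^ 2)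
    (k1 : ∀ B : Subgroup ↥(twistedE6 F (p ^ f)), HOff p f [18, 12] B → B = ⊤)
    (k2 : ∀ B : Subgroup ↥(twistedE6 F (p ^ f)), HOff p f [18, 8] B → B = ⊤)
    (k3 : ∀ B : Subgroup ↥(twistedE6 F (p ^ f)), HOff p f [12, 8] B → B ≠ ⊤ →
      ∀ c ∈ [18, 10], ∀ r, Prim p (f * c) r → ¬ r ∣ Nat.card B)
    (k4 : ∀ B : Subgroup ↥(twistedE6 F (p ^ f)), (∀ r, Prim p (f * 18) r → ¬ r ∣ B.index) →
      ∀ s, Prim p (f * 10) s → s ∣ Nat.card B → B = ⊤)
    {G : Type u} [Group G] [Finite G] {T X Y : Subgroup G} (h : Fac T X Y) (e : T ≃* ↥(twistedE6 F (p ^ f)))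
    (h18 : HAt p f 18 ((X.subgroupOf T).map e.toMonoidHom)) : False := by
  have hX := map_ne_top_left h e
  have hY := map_ne_top_right h e
  have h12 := ((cl_TE6 hp hf hF (Or.inr (Or.inl rfl))).fac h e hp hf (by norm_num)).resolve_left
    fun h12 => hX (k1 _ (hoff2 h18 h12))
  have h8 := ((cl_TE6 hp hf hF (Or.inl rfl)).fac h e hp hf (by norm_num)).resolve_left
    fun h8 => hX (k2 _ (hoff2 h18 h8))
  have hno := k3 _ (hoff2 h12 h8) hY
  have hall := (cl_TE6 hp hf hF (Or.inr (Or.inr rfl))).all h e hp hf (by norm_num) (hno 18 (by decide))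
  obtain ⟨s, hs⟩ := exists_prim_class hp hf (c := 10) (by norm_num) (by norm_num)
  obtain ⟨h1, h2⟩ := ten_TE6 hp hf hF hs
  have h3 := (prime_of_fac h e hs.prime h1 (by rw [card_out_congr e]; exact h2)).resolve_right (hno 10 (by decide) s hs)
  exact hX (k4 _ hall s hs h3)

/-- **`²E₆`** -/
theorem no_fac_TE6 {F : Type v} [Field F] [Fintype F] (hp : p.Prime) (hf : 1 ≤ f) (hF : Fintype.card F = (p ^ f) ^ 2)
    (k1 : ∀ B : Subgroup ↥(twistedE6 F (p ^ f)), HOff p f [18, 12] B → B = ⊤)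
    (k2 : ∀ B : Subgroup ↥(twistedE6 F (p ^ f)), HOff p f [18, 8] B → B = ⊤)
    (k3 : ∀ B : Subgroup ↥(twistedE6 F (p ^ f)), HOff p f [12, 8] B → B ≠ ⊤ →
      ∀ c ∈ [18, 10], ∀ r, Prim p (f * c) r → ¬ r ∣ Nat.card B)
    (k4 : ∀ B : Subgroup ↥(twistedE6 F (p ^ f)), (∀ r, Prim p (f * 18) r → ¬ r ∣ B.index) →
      ∀ s, Prim p (f * 10) s → s ∣ Nat.card B → B = ⊤)
    {G : Type u} [Group G] [Finite G] {T X Y : Subgroup G} (h : Fac T X Y) (e : T ≃* ↥(twistedE6 F (p ^ f))) : False := by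
  rcases (cl_TE6 hp hf hF (Or.inr (Or.inr rfl))).fac h e hp hf (by norm_num) with h18 | h18
  · exact no_fac_TE6_aux hp hf hF k1 k2 k3 k4 h e h18
  · exact no_fac_TE6_aux hp hf hF k1 k2 k3 k4 h.symm e h18

end Cfsg.Agent.H813.Rg
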